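import Cfsg.Agent.CosetEnum.SubRealize
import Cfsg.Agent.JFourM24.Data

/-! Relations checked through the normal form of the free product of groups of orders 2 and 3. -/

set_option autoImplicit false

namespace Cfsg.Agent.JFourM24

open Cfsg.Agent.CosetCert Cfsg.Agent.CosetEnum

/-- Push a letter on the stack (1 is the involution, 2 and 3 are inverse of order 3). -/
def push (s : List ℕ) (l : ℕ) : List ℕ :=
  match l, s with
  | 1, 1 :: t => t
  | 2, 3 :: t => t
  | 3, 2 :: t => t
  | 2, 2 :: t => 3 :: t
  | 3, 3 :: t => 2 :: t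
  | l, t => l :: t

def nf (w : List ℕ) : List ℕ := w.foldl push []

def revInv (w : List ℕ) : List ℕ :=
  w.reverse.map fun l => if l = 2 then 3 else if l = 3 then 2 else l

/-- The word is a conjugate of a relator, up to the normal form. -/
def derivedOK (rels : List (List ℕ)) (w : List ℕ) (c : ℕ × Bool × List ℕ) : Bool :=
  let u := rels.getD c.1 []
  let v := if c.2.1 then revInv u else u
  c.2.2.all (fun l => decide (l ∈ [1, 2, 3])) && u.all (fun l => decide (l ∈ [1, 2, 3])) &&
    (nf w == nf (c.2.2 ++ v ++ revInv c.2.2))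

/-- The rules of the letters. -/
structure Letters {G : Type*} [Group G] (g : ℕ → G) : Prop where
  sq : g 1 * g 1 = 1
  l23 : g 2 * g 3 = 1
  l22 : g 2 * g 2 = g 3

variable {G : Type*} [Group G] {g : ℕ → G}

theorem Letters.l32 (h : Letters g) : g 3 * g 2 = 1 := mul_eq_one_comm.mp h.l23

theorem Letters.l33 (h : Letters g) : g 3 * g 3 = g 2 := by
  have e : g 2 = (g 3)⁻¹ := eq_inv_of_mul_eq_one_left h.l23
  have h2 := congrArg (·⁻¹) h.l22
  rw [e] at h2 ⊢
  simpa [mul_inv_rev] using h2

theorem push_spec (h : Letters g) (s : List ℕ) (l : ℕ) :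
    pval g (push s l).reverse = g l * pval g s.reverse := by
  have key : ∀ (a : ℕ) (t : List ℕ), pval g (a :: t).reverse = g a * pval g t.reverse := by
    intro a t
    rw [List.reverse_cons, pval_append]
    simp [pval]
  unfold push
  split
  · rw [key, ← mul_assoc, h.sq, one_mul]
  · rw [key, ← mul_assoc, h.l23, one_mul]
  · rw [key, ← mul_assoc, h.l32, one_mul]
  · rw [key, key, ← mul_assoc, h.l22]
  · rw [key, key, ← mul_assoc, h.l33]
  · exact key _ _

theorem fold_spec (h : Letters g) : ∀ w s : List ℕ,
    pval g (w.foldl push s).reverse = pval g w * pval g s.reverse := by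
  intro w
  induction w with
  | nil => intro s; simp [pval]
  | cons l ls ih =>
    intro s
    rw [List.foldl_cons, ih, push_spec h, pval, mul_assoc]

theorem nf_spec (h : Letters g) (w : List ℕ) : pval g (nf w).reverse = pval g w := by
  rw [nf, fold_spec h]
  simp [pval]

theorem revInv_spec (h : Letters g) : ∀ w : List ℕ, (∀ l ∈ w, l ∈ [1, 2, 3]) →
    pval g (revInv w) = (pval g w)⁻¹ := by
  intro w
  induction w with
  | nil => intro _; simp [revInv, pval]
  | cons l ls ih =>
    intro hw
    have hl : g (if l = 2 then 3 else if l = 3 then 2 else l) = (g l)⁻¹ := by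
      have h0 := hw l List.mem_cons_self
      simp only [List.mem_cons, List.not_mem_nil, or_false] at h0
      rcases h0 with rfl | rfl | rfl
      · simpa using eq_inv_of_mul_eq_one_left h.sq
      · simpa using eq_inv_of_mul_eq_one_left h.l32
      · simpa using eq_inv_of_mul_eq_one_left h.l23
    have e : revInv (l :: ls) = revInv ls ++ [if l = 2 then 3 else if l = 3 then 2 else l] := by
      simp [revInv]
    rw [e, pval_append, ih fun m hm => hw m (List.mem_cons_of_mem _ hm)]
    simp [pval, hl, mul_inv_rev]

theorem derived_spec (h : Letters g) {rels : List (List ℕ)} (hrel : ∀ u ∈ rels, pval g u = 1)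
    {w : List ℕ} {c : ℕ × Bool × List ℕ} (hc : derivedOK rels w c = true) : pval g w = 1 := by
  simp only [derivedOK, Bool.and_eq_true, List.all_eq_true, decide_eq_true_eq, beq_iff_eq] at hc
  obtain ⟨⟨hcl, hul⟩, he⟩ := hc
  rw [← nf_spec h, he, nf_spec h, pval_append, pval_append, revInv_spec h _ hcl]
  have hu : pval g (rels.getD c.1 []) = 1 := by
    by_cases hi : c.1 < rels.length
    · rw [List.getD_eq_getElem _ _ hi]
      exact hrel _ (List.getElem_mem hi)
    · rw [List.getD_eq_default _ _ (Nat.le_of_not_lt hi)]
      rfl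
  split
  · rw [revInv_spec h _ hul, hu]; simp
  · rw [hu]; simp

end Cfsg.Agent.JFourM24
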