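import Mathlib

/-! Matrices over the field with two elements acting on bit vectors; all rows are moved at once. -/

set_option autoImplicit false

namespace Cfsg.Agent.JFourM24

/-- `v` times the matrix with rows `M`. -/
def vm (M : List ℕ) (v : ℕ) : ℕ :=
  match M with
  | [] => 0
  | r :: M => ((v % 2) * r) ^^^ vm M (v / 2)

theorem mod_two_xor (u v : ℕ) : (u ^^^ v) % 2 = (u % 2) ^^^ (v % 2) := by
  have := Nat.xor_mod_two_pow (a := u) (b := v) (n := 1)
  simpa using this

theorem vm_xor : ∀ (M : List ℕ) (u v : ℕ), vm M (u ^^^ v) = vm M u ^^^ vm M v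
  | [], _, _ => by simp [vm]
  | r :: M, u, v => by
    have hd : (u ^^^ v) / 2 = u / 2 ^^^ v / 2 := by
      simpa [Nat.shiftRight_eq_div_pow] using (Nat.shiftRight_xor_distrib (a := u) (b := v) (i := 1))
    simp only [vm, hd, vm_xor M]
    rw [mod_two_xor]
    rcases Nat.mod_two_eq_zero_or_one u with hu | hu <;>
      rcases Nat.mod_two_eq_zero_or_one v with hv | hv <;>
      rw [hu, hv] <;>
      simp only [Nat.zero_mul, Nat.one_mul, Nat.xor_self, Nat.zero_xor, Nat.xor_zero]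
    · ac_rfl
    · ac_rfl
    · rw [show r ^^^ vm M (u / 2) ^^^ (r ^^^ vm M (v / 2))
        = (r ^^^ r) ^^^ (vm M (u / 2) ^^^ vm M (v / 2)) by ac_rfl, Nat.xor_self, Nat.zero_xor]

theorem vm_zero : ∀ M : List ℕ, vm M 0 = 0
  | [] => rfl
  | r :: M => by simp [vm, vm_zero M]

theorem vm_lt {n : ℕ} : ∀ (M : List ℕ), (∀ r ∈ M, r < 2 ^ n) → ∀ v, vm M v < 2 ^ n
  | [], _, _ => Nat.two_pow_pos n
  | r :: M, h, v => by
    refine Nat.xor_lt_two_pow ?_ (vm_lt M (fun s hs => h s (List.mem_cons_of_mem _ hs)) _)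
    have := h r List.mem_cons_self
    rcases Nat.mod_two_eq_zero_or_one v with hv | hv <;> simp [hv, this]

/-! ### all rows at once -/

def rowsPack : List ℕ → ℕ
  | [] => 0
  | v :: vs => v + 2 ^ 112 * rowsPack vs

def bitMask : ℕ → ℕ
  | 0 => 0
  | n + 1 => 1 + 2 ^ 112 * bitMask n

def ones112 : ℕ := bitMask 112

noncomputable def packStep (M : List ℕ) : ℕ → ℕ :=
  List.rec (motive := fun _ => ℕ → ℕ) (fun _ => 0)
    (fun r _ ih X => Nat.xor (Nat.mul (Nat.land X ones112) r) (ih (Nat.shiftRight X 1))) M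

noncomputable def packRun (Ms : ℕ → List ℕ) (w : List ℕ) : ℕ → ℕ :=
  List.rec (motive := fun _ => ℕ → ℕ) (fun X => X)
    (fun l _ ih X => ih (Nat.rec (motive := fun _ => ℕ) 0 (fun m _ => m + 1) (packStep (Ms l) X))) w

theorem pack_split (x m A B : ℕ) (hm : m < 2 ^ 112) :
    (x + 2 ^ 112 * A) &&& (m + 2 ^ 112 * B) =
      (x % 2 ^ 112 &&& m) + 2 ^ 112 * ((x / 2 ^ 112 + A) &&& B) := by
  have h1 : ((x + 2 ^ 112 * A) &&& (m + 2 ^ 112 * B)) % 2 ^ 112 = x % 2 ^ 112 &&& m := by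
    rw [Nat.and_mod_two_pow, Nat.add_mul_mod_self_left, Nat.add_mul_mod_self_left, Nat.mod_eq_of_lt hm]
  have h2 : ((x + 2 ^ 112 * A) &&& (m + 2 ^ 112 * B)) / 2 ^ 112 = (x / 2 ^ 112 + A) &&& B := by
    have h : ((x + 2 ^ 112 * A) &&& (m + 2 ^ 112 * B)) >>> 112 =
        ((x + 2 ^ 112 * A) >>> 112) &&& ((m + 2 ^ 112 * B) >>> 112) := Nat.shiftRight_and_distrib
    simp only [Nat.shiftRight_eq_div_pow] at h
    rw [h, Nat.add_mul_div_left _ _ (Nat.two_pow_pos 112),
      Nat.add_mul_div_left _ _ (Nat.two_pow_pos 112), Nat.div_eq_of_lt hm, Nat.zero_add]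
  rw [← h1, ← h2, add_comm (((x + 2 ^ 112 * A) &&& (m + 2 ^ 112 * B)) % 2 ^ 112)]
  exact (Nat.div_add_mod _ _).symm

theorem pack_xor (x y A B : ℕ) (hx : x < 2 ^ 112) (hy : y < 2 ^ 112) :
    (x + 2 ^ 112 * A) ^^^ (y + 2 ^ 112 * B) = (x ^^^ y) + 2 ^ 112 * (A ^^^ B) := by
  have h1 : ((x + 2 ^ 112 * A) ^^^ (y + 2 ^ 112 * B)) % 2 ^ 112 = x ^^^ y := by
    rw [Nat.xor_mod_two_pow, Nat.add_mul_mod_self_left, Nat.add_mul_mod_self_left, Nat.mod_eq_of_lt hx,
      Nat.mod_eq_of_lt hy]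
  have h2 : ((x + 2 ^ 112 * A) ^^^ (y + 2 ^ 112 * B)) / 2 ^ 112 = A ^^^ B := by
    have h : ((x + 2 ^ 112 * A) ^^^ (y + 2 ^ 112 * B)) >>> 112 =
        ((x + 2 ^ 112 * A) >>> 112) ^^^ ((y + 2 ^ 112 * B) >>> 112) := Nat.shiftRight_xor_distrib
    simp only [Nat.shiftRight_eq_div_pow] at h
    rw [h, Nat.add_mul_div_left _ _ (Nat.two_pow_pos 112),
      Nat.add_mul_div_left _ _ (Nat.two_pow_pos 112), Nat.div_eq_of_lt hx, Nat.div_eq_of_lt hy,
      Nat.zero_add, Nat.zero_add]
  rw [← h1, ← h2, add_comm (((x + 2 ^ 112 * A) ^^^ (y + 2 ^ 112 * B)) % 2 ^ 112)]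
  exact (Nat.div_add_mod _ _).symm

theorem rowsPack_zero : ∀ vs : List ℕ, rowsPack (vs.map fun _ => 0) = 0
  | [] => rfl
  | _ :: vs => by
    rw [List.map_cons, rowsPack, rowsPack_zero vs]; rfl

theorem rows_shift : ∀ (vs : List ℕ), (∀ v ∈ vs, v < 2 ^ 112) → ∀ s, s ≤ 111 →
    (rowsPack vs >>> s) &&& bitMask vs.length = rowsPack (vs.map fun v => v / 2 ^ s % 2)
  | [], _, _, _ => by simp [rowsPack, bitMask]
  | v :: vs, h, s, hs => by
    have hv := h v List.mem_cons_self
    have e : (v + 2 ^ 112 * rowsPack vs) >>> s = v / 2 ^ s + 2 ^ (112 - s) * rowsPack vs := by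
      have : (2 : ℕ) ^ 112 = 2 ^ s * 2 ^ (112 - s) := by rw [← pow_add]; congr 1; omega
      rw [Nat.shiftRight_eq_div_pow, this, mul_assoc, Nat.add_mul_div_left _ _ (Nat.two_pow_pos s)]
    simp only [rowsPack, bitMask, List.length_cons, List.map_cons]
    rw [e]
    have key := pack_split (v / 2 ^ s + 2 ^ (112 - s) * rowsPack vs) 1 0 (bitMask vs.length)
      (Nat.one_lt_two_pow (by norm_num))
    simp only [mul_zero, add_zero] at key
    rw [key, ← rows_shift vs (fun w hw => h w (List.mem_cons_of_mem _ hw)) s hs]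
    have hlow : (v / 2 ^ s + 2 ^ (112 - s) * rowsPack vs) % 2 ^ 112 &&& 1 = v / 2 ^ s % 2 := by
      rw [Nat.and_one_is_mod, Nat.mod_mod_of_dvd _ (dvd_pow_self 2 (by norm_num))]
      obtain ⟨k, hk⟩ : ∃ k, 112 - s = k + 1 := ⟨111 - s, by omega⟩
      rw [hk, pow_succ', mul_assoc, Nat.add_mul_mod_self_left]
    have hhigh : (v / 2 ^ s + 2 ^ (112 - s) * rowsPack vs) / 2 ^ 112 = rowsPack vs >>> s := by
      rw [Nat.shiftRight_eq_div_pow]
      have hd : (2 : ℕ) ^ 112 = 2 ^ (112 - s) * 2 ^ s := by rw [← pow_add]; congr 1; omega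
      rw [hd, ← Nat.div_div_eq_div_mul, Nat.add_mul_div_left _ _ (Nat.two_pow_pos _)]
      have : v / 2 ^ s / 2 ^ (112 - s) = 0 := by
        rw [Nat.div_div_eq_div_mul, ← pow_add, Nat.add_sub_cancel' (by omega)]
        exact Nat.div_eq_of_lt hv
      rw [this, Nat.zero_add]
    rw [hlow, hhigh]

theorem rows_mul (r : ℕ) : ∀ vs : List ℕ, rowsPack vs * r = rowsPack (vs.map fun v => v * r)
  | [] => by simp [rowsPack]
  | v :: vs => by simp only [rowsPack, List.map_cons, ← rows_mul r vs]; ring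

theorem rows_xor (f g : ℕ → ℕ) : ∀ vs : List ℕ, (∀ v ∈ vs, f v < 2 ^ 112) → (∀ v ∈ vs, g v < 2 ^ 112) →
    rowsPack (vs.map f) ^^^ rowsPack (vs.map g) = rowsPack (vs.map fun v => f v ^^^ g v)
  | [], _, _ => by simp [rowsPack]
  | v :: vs, hf, hg => by
    simp only [rowsPack, List.map_cons]
    rw [pack_xor _ _ _ _ (hf v List.mem_cons_self) (hg v List.mem_cons_self),
      rows_xor f g vs (fun w hw => hf w (List.mem_cons_of_mem _ hw))
        (fun w hw => hg w (List.mem_cons_of_mem _ hw))]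

theorem packStep_aux : ∀ (M : List ℕ), (∀ r ∈ M, r < 2 ^ 112) → ∀ (vs : List ℕ), vs.length = 112 →
    (∀ v ∈ vs, v < 2 ^ 112) → ∀ s, s + M.length ≤ 112 →
    packStep M (rowsPack vs >>> s) = rowsPack (vs.map fun v => vm M (v / 2 ^ s))
  | [], _, vs, _, _, _, _ => (rowsPack_zero vs).symm
  | r :: M, hM, vs, hl, hv, s, hs => by
    show (((rowsPack vs >>> s) &&& ones112) * r) ^^^ packStep M ((rowsPack vs >>> s) >>> 1) = _
    have e : ones112 = bitMask vs.length := by rw [hl]; rfl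
    rw [e, rows_shift vs hv s (by simp at hs; omega), ← Nat.shiftRight_add,
      packStep_aux M (fun q hq => hM q (List.mem_cons_of_mem _ hq)) vs hl hv (s + 1)
        (by simp at hs; omega), rows_mul, List.map_map, rows_xor]
    · simp [vm, Nat.div_div_eq_div_mul, pow_succ]
    · intro v _
      have := hM r List.mem_cons_self
      simp only [Function.comp_apply]
      rcases Nat.mod_two_eq_zero_or_one (v / 2 ^ s) with h | h
      · rw [h, Nat.zero_mul]; exact Nat.two_pow_pos 112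
      · rw [h, Nat.one_mul]; exact this
    · intro v _
      exact vm_lt M (fun q hq => hM q (List.mem_cons_of_mem _ hq)) _

theorem packStep_rows (M : List ℕ) (hM : ∀ r ∈ M, r < 2 ^ 112) (hlen : M.length ≤ 112) (vs : List ℕ)
    (hl : vs.length = 112) (hv : ∀ v ∈ vs, v < 2 ^ 112) :
    packStep M (rowsPack vs) = rowsPack (vs.map (vm M)) := by
  have h := packStep_aux M hM vs hl hv 0 (by omega)
  simpa using h

/-- Apply the letters from left to right. -/
def vrun (Ms : ℕ → List ℕ) (w : List ℕ) (v : ℕ) : ℕ := w.foldl (fun v l => vm (Ms l) v) v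

theorem packRun_rows (Ms : ℕ → List ℕ) (hM : ∀ l, (∀ r ∈ Ms l, r < 2 ^ 112) ∧ (Ms l).length ≤ 112) :
    ∀ (w : List ℕ) (vs : List ℕ), vs.length = 112 → (∀ v ∈ vs, v < 2 ^ 112) →
      packRun Ms w (rowsPack vs) = rowsPack (vs.map (vrun Ms w)) := by
  intro w
  induction w with
  | nil =>
    intro vs _ _
    show rowsPack vs = rowsPack (vs.map fun v => v)
    rw [List.map_id']
  | cons l ls ih =>
    intro vs hl hv
    have e : ∀ n : ℕ, Nat.rec (motive := fun _ => ℕ) 0 (fun m _ => m + 1) n = n := fun n => by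
      cases n <;> rfl
    show packRun Ms ls (Nat.rec (motive := fun _ => ℕ) 0 (fun m _ => m + 1) (packStep (Ms l) (rowsPack vs))) = _
    rw [e, packStep_rows _ (hM l).1 (hM l).2 vs hl hv, ih _ (by simp [hl])
      (by
        intro v hv'
        obtain ⟨u, -, rfl⟩ := List.mem_map.mp hv'
        exact vm_lt _ (hM l).1 _), List.map_map]
    rfl

theorem rowsPack_inj : ∀ {us vs : List ℕ}, us.length = vs.length → (∀ v ∈ us, v < 2 ^ 112) →
    (∀ v ∈ vs, v < 2 ^ 112) → rowsPack us = rowsPack vs → us = vs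
  | [], [], _, _, _, _ => rfl
  | [], _ :: _, h, _, _, _ => by simp at h
  | _ :: _, [], h, _, _, _ => by simp at h
  | u :: us, v :: vs, hl, hu, hv, e => by
    have hu0 := hu u List.mem_cons_self
    have hv0 := hv v List.mem_cons_self
    simp only [rowsPack] at e
    have e1 : u = v := by
      have := congrArg (· % 2 ^ 112) e
      simp only [Nat.add_mul_mod_self_left] at this
      rwa [Nat.mod_eq_of_lt hu0, Nat.mod_eq_of_lt hv0] at this
    subst e1
    have e2 : rowsPack us = rowsPack vs :=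
      Nat.eq_of_mul_eq_mul_left (Nat.two_pow_pos 112) (Nat.add_left_cancel e)
    rw [rowsPack_inj (by simpa using hl) (fun w hw => hu w (List.mem_cons_of_mem _ hw))
      (fun w hw => hv w (List.mem_cons_of_mem _ hw)) e2]

theorem vrun_xor (Ms : ℕ → List ℕ) : ∀ (w : List ℕ) (u v : ℕ),
    vrun Ms w (u ^^^ v) = vrun Ms w u ^^^ vrun Ms w v := by
  intro w
  induction w with
  | nil => intros; rfl
  | cons l ls ih =>
    intro u v
    simp only [vrun, List.foldl_cons, vm_xor] at *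
    exact ih _ _

/-- A word that fixes the unit vectors fixes every vector. -/
theorem vrun_id (Ms : ℕ → List ℕ) (w : List ℕ) (h : ∀ i < 112, vrun Ms w (2 ^ i) = 2 ^ i)
    (v : ℕ) (hv : v < 2 ^ 112) : vrun Ms w v = v := by
  have hz : vrun Ms w 0 = 0 := by
    have := vrun_xor Ms w 0 0
    simpa using this
  suffices ∀ k ≤ 112, ∀ v < 2 ^ k, vrun Ms w v = v from this 112 le_rfl v hv
  intro k
  induction k with
  | zero => intro _ v hv; simp at hv; subst hv; exact hz
  | succ k ih =>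
    intro hk v hv
    rcases Nat.lt_or_ge v (2 ^ k) with h1 | h1
    · exact ih (by omega) v h1
    · have h2 : v = 2 ^ k ^^^ (v - 2 ^ k) := by
        have h3 := Nat.two_pow_add_eq_or_of_lt (i := k) (b := v - 2 ^ k) (by rw [pow_succ] at hv; omega) 1
        rw [mul_one] at h3
        have h4 : 2 ^ k &&& (v - 2 ^ k) = 0 := by
          rw [Nat.and_comm, Nat.and_two_pow]
          simp [Nat.testBit_eq_false_of_lt (show v - 2 ^ k < 2 ^ k by rw [pow_succ] at hv; omega)]
        apply Nat.eq_of_testBit_eq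
        intro j
        conv_lhs => rw [show v = 2 ^ k + (v - 2 ^ k) by omega, h3]
        have h5 := congrArg (fun x => Nat.testBit x j) h4
        simp only [Nat.testBit_and, Nat.zero_testBit] at h5
        rw [Nat.testBit_or, Nat.testBit_xor]
        cases ha : Nat.testBit (2 ^ k) j <;> cases hb : Nat.testBit (v - 2 ^ k) j <;>
          simp [ha, hb] at h5 ⊢
      rw [h2, vrun_xor, h k (by omega), ih (by omega) _ (by rw [pow_succ] at hv; omega)]

end Cfsg.Agent.JFourM24
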