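import Cfsg.Prelude.Def_Spor_J4
import Cfsg.Agent.CosetCert.Basic
import Cfsg.Agent.JFourM24.RepEngine
import Cfsg.Agent.JFourM24.RepData

/-! The 112-dimensional representation of the presented group `J4`: its generator `x` is not trivial. -/

set_option autoImplicit false
set_option maxRecDepth 100000

namespace Cfsg.Agent.JFourM24

open Cfsg.Agent.CosetCert

def mats : ℕ → List ℕ
  | 1 => matX
  | 2 => matYinv
  | 3 => matY
  | 4 => matT
  | _ => (List.range 112).map fun i => 2 ^ i

theorem mats_ok (l : ℕ) : (∀ r ∈ mats l, r < 2 ^ 112) ∧ (mats l).length ≤ 112 := by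
  have h : ∀ l ≤ 5, (∀ r ∈ mats l, r < 2 ^ 112) ∧ (mats l).length ≤ 112 := by decide +kernel
  rcases Nat.lt_or_ge l 5 with hl | hl
  · exact h l (by omega)
  · have e : mats l = mats 5 := by
      obtain ⟨k, rfl⟩ : ∃ k, l = k + 5 := ⟨l - 5, by omega⟩
      rfl
    rw [e]
    exact h 5 le_rfl

def units : List ℕ := (List.range 112).map fun i => 2 ^ i

theorem word_id {w : List ℕ} (h : Nat.beq (packRun mats w (rowsPack units)) (rowsPack units) = true)
    (v : ℕ) (hv : v < 2 ^ 112) : vrun mats w v = v := by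
  refine vrun_id mats w (fun i hi => ?_) v hv
  have hlen : units.length = 112 := rfl
  have hlt : ∀ u ∈ units, u < 2 ^ 112 := by decide +kernel
  have e := Nat.eq_of_beq_eq_true h
  rw [packRun_rows mats mats_ok w units hlen hlt] at e
  have e2 := rowsPack_inj (by simp) (by
    intro u hu
    obtain ⟨q, hq, rfl⟩ := List.mem_map.mp hu
    cases w using List.reverseRec with
    | nil => exact hlt q hq
    | append_singleton ls l =>
      rw [vrun, List.foldl_append]
      exact vm_lt _ (mats_ok l).1 _) hlt e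
  have hm : 2 ^ i ∈ units := List.mem_map.mpr ⟨i, List.mem_range.mpr hi, rfl⟩
  have := (List.map_eq_map_iff (l := units) (f := vrun mats w) (g := id)).mp (by rw [e2, List.map_id])
  exact this _ hm

theorem checks : ∀ u ∈ jWords ++ [[2, 3], [3, 2]],
    Nat.beq (packRun mats u (rowsPack units)) (rowsPack units) = true := by
  decide +kernel

/-- The space. -/
abbrev Sp : Type := {v : ℕ // v < 2 ^ 112}

def mapOf (l : ℕ) (v : Sp) : Sp := ⟨vm (mats l) v.1, vm_lt _ (mats_ok l).1 _⟩

theorem pair_id {a b : ℕ} (h : [a, b] ∈ jWords ++ [[2, 3], [3, 2]]) (v : Sp) :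
    mapOf b (mapOf a v) = v :=
  Subtype.ext (word_id (checks _ h) v.1 v.2)

def permJ : Cfsg.Spor.J4.Gen → Equiv.Perm Sp
  | .x => ⟨mapOf 1, mapOf 1, pair_id (by decide), pair_id (by decide)⟩
  | .t => ⟨mapOf 4, mapOf 4, pair_id (by decide), pair_id (by decide)⟩
  | .y => ⟨mapOf 2, mapOf 3, pair_id (by decide), pair_id (by decide)⟩

def letJ : ℕ → Equiv.Perm Sp
  | 1 => permJ .x
  | 2 => permJ .y
  | 3 => (permJ .y)⁻¹
  | 4 => permJ .t
  | _ => 1

theorem letJ_pval : ∀ (u : List ℕ), (∀ l ∈ u, l ∈ [1, 2, 3, 4]) → ∀ v : Sp,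
    ((pval letJ u) v).1 = vrun mats u v.1 := by
  intro u
  induction u with
  | nil => intros; rfl
  | cons l ls ih =>
    intro h v
    have hl : ∀ w : Sp, letJ l w = mapOf l w := by
      have h0 := h l List.mem_cons_self
      simp only [List.mem_cons, List.not_mem_nil, or_false] at h0
      rcases h0 with rfl | rfl | rfl | rfl <;> intro w <;> rfl
    rw [pval, Equiv.Perm.mul_apply, ih (fun m hm => h m (List.mem_cons_of_mem _ hm)), hl]
    rfl

theorem letJ_rel {u : List ℕ} (hu : u ∈ jWords) : pval letJ u = 1 := by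
  have hl : ∀ u ∈ jWords, ∀ l ∈ u, l ∈ [1, 2, 3, 4] := by decide +kernel
  refine Equiv.ext fun v => Subtype.ext ?_
  rw [letJ_pval u (hl u hu)]
  exact word_id (checks u (List.mem_append_left _ hu)) v.1 v.2

/-- The letter of a signed generator. -/
def codeJ : Cfsg.Spor.J4.Gen × Bool → ℕ
  | (.x, _) => 1
  | (.y, true) => 2
  | (.y, false) => 3
  | (.t, _) => 4

theorem extra_words : ∀ r ∈ Cfsg.Spor.J4.extra, (r.toWord.map codeJ).reverse ∈ jWords := by
  decide +kernel

theorem relators : ∀ r ∈ Cfsg.Spor.coxRelators Cfsg.Spor.J4.edges ∪ {r | r ∈ Cfsg.Spor.J4.extra},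
    FreeGroup.lift permJ r = 1 := by
  rintro r (⟨a, ha, -, -, -⟩ | hr)
  · simp [Cfsg.Spor.coxNodes, Cfsg.Spor.J4.edges] at ha
  · have h := letJ_rel (extra_words r hr)
    rw [pval_eq_prod, List.reverse_reverse, List.map_map] at h
    rw [← FreeGroup.mk_toWord (x := r), FreeGroup.lift_mk]
    refine Eq.trans ?_ h
    refine congrArg List.prod (List.map_congr_left fun z _ => ?_)
    rcases z with ⟨_ | _ | _, _ | _⟩ <;> rfl

theorem gen_x_ne_one : (PresentedGroup.of Cfsg.Spor.J4.Gen.x : Cfsg.Spor.J4) ≠ 1 := by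
  intro e
  have h := congrArg (PresentedGroup.toGroup relators) e
  rw [PresentedGroup.toGroup.of, map_one] at h
  have h2 : vm matX 1 = 1 := congrArg (fun σ : Equiv.Perm Sp => (σ ⟨1, by norm_num⟩).1) h
  exact absurd h2 (by decide +kernel)

end Cfsg.Agent.JFourM24
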