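import Cfsg.Agent.JFourM24.Upper
import Cfsg.Agent.JFourM24.Rep
import Cfsg.Agent.M24Geo.Code
import Cfsg.Agent.Golay.M24
import Cfsg.Agent.Golay.MathieuSimple
import Cfsg.Agent.CentralExt.Basic
import Cfsg.Agent.SchurCert.M24Trivial

/-! The seven relators present `M24`, which embeds in the presented group `J4`. -/

set_option autoImplicit false
set_option maxRecDepth 100000

namespace Cfsg.Agent.JFourM24

open Cfsg Cfsg.Agent.CosetCert Cfsg.Agent.CosetEnum

/-- The two abstract generators as letters. -/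
def gF : ℕ → FreeGroup (Fin 2)
  | 1 => FreeGroup.of 0
  | 2 => (FreeGroup.of 1)⁻¹
  | 3 => FreeGroup.of 1
  | _ => 1

def relsTwo : Set (FreeGroup (Fin 2)) := {r | ∃ u ∈ relWords, r = pval gF u}

/-- The group of the seven relators. -/
abbrev Two : Type := PresentedGroup relsTwo

noncomputable def gP (l : ℕ) : Two := PresentedGroup.mk relsTwo (gF l)

theorem map_pval {G H : Type*} [Group G] [Group H] (φ : G →* H) (g : ℕ → G) :
    ∀ u : List ℕ, φ (pval g u) = pval (fun l => φ (g l)) u
  | [] => map_one φ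
  | l :: ls => by simp [pval, map_pval φ g ls]

theorem gP_rel {u : List ℕ} (hu : u ∈ relWords) : pval gP u = 1 := by
  have h := map_pval (PresentedGroup.mk relsTwo) gF u
  rw [show gP = fun l => PresentedGroup.mk relsTwo (gF l) from rfl, ← h]
  exact PresentedGroup.one_of_mem ⟨u, hu, rfl⟩

theorem gP_letters : Letters gP where
  sq := by simpa [pval] using gP_rel (u := [1, 1]) (by decide +kernel)
  l23 := by simp [gP, gF]
  l22 := by
    have h := gP_rel (u := [2, 2, 2]) (by decide +kernel)
    simp only [pval, one_mul] at h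
    rw [eq_inv_of_mul_eq_one_left h]
    simp [gP, gF]

theorem gP_top : Subgroup.closure (gP '' {l | l ∈ [1, 2, 3]}) = ⊤ := by
  rw [eq_top_iff, ← PresentedGroup.closure_range_of relsTwo, Subgroup.closure_le]
  rintro _ ⟨i, rfl⟩
  fin_cases i
  · exact Subgroup.subset_closure ⟨1, by decide, rfl⟩
  · exact Subgroup.subset_closure ⟨3, by decide, rfl⟩

theorem two_card : Finite Two ∧ Nat.card Two ≤ 734469120 := by
  obtain ⟨hf, hc⟩ := card_le (g := gP) (map_one _) (fun l hl => by
    obtain ⟨k, rfl⟩ : ∃ k, l = k + 4 := ⟨l - 4, by omega⟩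
    exact map_one _) gP_letters (fun u hu => gP_rel hu)
  rw [gP_top] at hf hc
  exact ⟨Finite.of_equiv _ Subgroup.topEquiv.toEquiv, by
    rwa [Nat.card_congr Subgroup.topEquiv.toEquiv] at hc⟩

/-! ### the map to `M24` -/

open Cfsg.Agent.M24Geo

noncomputable def mx : Cfsg.M24 := ⟨permOf permX, permOf_mem_M24 (by decide +kernel)⟩

noncomputable def my : Cfsg.M24 := ⟨permOf permY, permOf_mem_M24 (by decide +kernel)⟩

noncomputable def gM : ℕ → Cfsg.M24
  | 1 => mx
  | 2 => my
  | 3 => my⁻¹
  | _ => 1

/-- Apply a word to a point index. -/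
def mRun (w : List ℕ) (i : ℕ) : ℕ :=
  w.foldl (fun j l => if l = 1 then permX.getD j 0 else if l = 2 then permY.getD j 0
    else permY.getD (permY.getD j 0) 0) i

theorem my_cube : my * (my * my) = 1 := by
  refine Subtype.ext (Equiv.ext fun p => ?_)
  have hv : validL permY = true := by decide +kernel
  have h : ∀ i < 24, permY.getD (permY.getD (permY.getD i 0) 0) 0 = i := by decide +kernel
  show permOf permY (permOf permY (permOf permY p)) = p
  apply idx_injective
  rw [idx_permOf hv, idx_permOf hv, idx_permOf hv]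
  exact h _ (idx_lt p)

theorem gM_pval : ∀ (u : List ℕ), (∀ l ∈ u, l ∈ [1, 2, 3]) → ∀ p : GolayPt,
    idx ((pval gM u : Cfsg.M24).1 p) = mRun u (idx p) := by
  have hvx : validL permX = true := by decide +kernel
  have hvy : validL permY = true := by decide +kernel
  intro u
  induction u with
  | nil => intros; rfl
  | cons l ls ih =>
    intro h p
    rw [pval, Subgroup.coe_mul, Equiv.Perm.mul_apply, ih (fun m hm => h m (List.mem_cons_of_mem _ hm))]
    have h0 := h l List.mem_cons_self
    simp only [List.mem_cons, List.not_mem_nil, or_false] at h0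
    show mRun ls _ = mRun ls _
    congr 1
    rcases h0 with rfl | rfl | rfl
    · exact idx_permOf hvx p
    · exact idx_permOf hvy p
    · have e : gM 3 = my * my := (eq_inv_of_mul_eq_one_right my_cube).symm
      rw [e]
      show idx (permOf permY (permOf permY p)) = _
      rw [idx_permOf hvy, idx_permOf hvy]
      rfl

theorem gM_rel {u : List ℕ} (hu : u ∈ relWords) : pval gM u = 1 := by
  have hl : ∀ u ∈ relWords, ∀ l ∈ u, l ∈ [1, 2, 3] := by decide +kernel
  have h : ∀ u ∈ relWords, ∀ i < 24, mRun u i = i := by decide +kernel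
  refine Subtype.ext (Equiv.ext fun p => idx_injective ?_)
  rw [gM_pval u (hl u hu) p, h u hu _ (idx_lt p)]
  rfl

noncomputable def genM : Fin 2 → Cfsg.M24 := ![mx, my⁻¹]

theorem lift_gF : (fun l => FreeGroup.lift genM (gF l)) = gM := by
  funext l
  match l with
  | 0 => simp [gF, gM]
  | 1 => simp [gF, gM, genM]
  | 2 => simp [gF, gM, genM]
  | 3 => simp [gF, gM, genM]
  | n + 4 => simp [gF, gM]

noncomputable def toM24 : Two →* Cfsg.M24 :=
  PresentedGroup.toGroup (f := genM) (rels := relsTwo) (by
    rintro _ ⟨u, hu, rfl⟩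
    rw [map_pval, lift_gF]
    exact gM_rel hu)

theorem toM24_gP : (fun l => toM24 (gP l)) = gM := by
  rw [← lift_gF]
  rfl

theorem word_mem (w : List ℕ) : pval gM w ∈ toM24.range := by
  rw [← toM24_gP, ← map_pval]
  exact ⟨_, rfl⟩

theorem toM24_surjective : Function.Surjective toM24 := by
  rw [← MonoidHom.range_eq_top]
  have hmem : ∀ (w : List ℕ) (σ : Equiv.Perm GolayPt), (∀ l ∈ w, l ∈ [1, 2, 3]) →
      (∀ p, idx (σ p) = mRun w (idx p)) → σ ∈ (toM24.range).map Cfsg.M24.subtype := by
    intro w σ hw hσ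
    refine ⟨pval gM w, word_mem w, Equiv.ext fun p => idx_injective ?_⟩
    exact (gM_pval w hw p).trans (hσ p).symm
  have hsub : Cfsg.M24 ≤ (toM24.range).map Cfsg.M24.subtype := by
    refine (Cfsg.Agent.Golay.gen3_eq_M24).ge.trans ((Subgroup.closure_le _).mpr ?_)
    rintro σ (rfl | rfl | rfl)
    · exact hmem wordShift _ (by decide +kernel) (by decide +kernel)
    · exact hmem wordProjInv _ (by decide +kernel) (by decide +kernel)
    · exact hmem wordCube _ (by decide +kernel) fun p =>
        (by decide +kernel : ∀ p : GolayPt, idx (Cfsg.cubeTwistFun p) = mRun wordCube (idx p)) p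
  rw [eq_top_iff]
  intro x _
  obtain ⟨y, hy, hxy⟩ := hsub x.2
  rwa [← Subtype.ext (a1 := y) (a2 := x) hxy]

theorem of_one : PresentedGroup.of (rels := relsTwo) (0 : Fin 2) = gP 1 := rfl

theorem relWords_two : relWords.getD 2 [] = (List.replicate 23 [1, 2]).flatten := by decide +kernel

theorem gP_xy : (gP 2 * gP 1) ^ 23 = 1 := by
  have h := gP_rel (u := relWords.getD 2 []) (by decide +kernel)
  rw [relWords_two, pval_replicate] at h
  simpa [pval] using h

theorem two_perfect {A : Type*} [CommGroup A] (φ : Two →* A) : φ = 1 := by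
  have h2 := congrArg φ (gP_rel (u := [1, 1]) (by decide +kernel))
  have h3 := congrArg φ (gP_rel (u := [2, 2, 2]) (by decide +kernel))
  have h23 := congrArg φ gP_xy
  rw [map_pow, map_mul, map_one] at h23
  simp only [pval, one_mul, map_mul, map_one] at h2 h3
  set a := φ (gP 1)
  set b := φ (gP 2)
  have ha : a ^ 2 = 1 := by rw [pow_two]; exact h2
  have hb : b ^ 3 = 1 := by rw [pow_succ, pow_two]; exact h3
  have hab : a ^ 23 * b ^ 23 = 1 := by
    rw [← mul_pow, mul_comm]; exact h23
  have e1 : a * b ^ 2 = 1 := by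
    rw [show a ^ 23 = (a ^ 2) ^ 11 * a by rw [← pow_mul, ← pow_succ],
      show b ^ 23 = (b ^ 3) ^ 7 * b ^ 2 by rw [← pow_mul, ← pow_add], ha, hb] at hab
    simpa using hab
  have eb : a = b := by
    calc a = a * (b ^ 2 * b) := by rw [← pow_succ, hb, mul_one]
      _ = b := by rw [← mul_assoc, e1, one_mul]
  have b1 : b = 1 := by
    rw [eb] at ha
    calc b = b ^ 2 * b := by rw [ha, one_mul]
      _ = 1 := by rw [← pow_succ, hb]
  refine PresentedGroup.ext fun i => ?_
  fin_cases i
  · show φ (gP 1) = 1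
    exact eb.trans b1
  · show φ (gP 3) = 1
    have h := congrArg φ gP_letters.l23
    rw [map_mul, map_one] at h
    rw [show φ (gP 2) = 1 from b1, one_mul] at h
    exact h

theorem toM24_injective : Function.Injective toM24 := by
  haveI := two_card.1
  have hker3 : Nat.card toM24.ker ≤ 3 := by
    have h := Subgroup.card_mul_index toM24.ker
    rw [Subgroup.index_ker, MonoidHom.range_eq_top.mpr toM24_surjective, Subgroup.card_top,
      Cfsg.Agent.Golay.card_M24] at h
    have := two_card.2
    omega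
  haveI : IsCyclic toM24.ker := by
    have hpos : 0 < Nat.card toM24.ker := Nat.card_pos
    rcases (show Nat.card toM24.ker = 1 ∨ Nat.card toM24.ker = 2 ∨ Nat.card toM24.ker = 3 by omega)
      with h | h | h
    · haveI := (Nat.card_eq_one_iff_unique.1 h).1
      exact isCyclic_of_subsingleton
    · haveI : Fact (Nat.Prime 2) := ⟨Nat.prime_two⟩
      exact isCyclic_of_prime_card h
    · haveI : Fact (Nat.Prime 3) := ⟨Nat.prime_three⟩
      exact isCyclic_of_prime_card h
  have haut : ∀ σ : MulAut toM24.ker, σ ^ 2 = 1 := by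
    intro σ
    have hc := IsCyclic.card_mulAut toM24.ker
    have hd : orderOf σ ∣ 2 := by
      have h1 := orderOf_dvd_natCard σ
      rw [hc] at h1
      have hpos : 0 < Nat.card toM24.ker := Nat.card_pos
      rcases (show Nat.card toM24.ker = 1 ∨ Nat.card toM24.ker = 2 ∨ Nat.card toM24.ker = 3 by omega)
        with h | h | h <;> rw [h] at h1
      · exact h1.trans (by decide)
      · exact h1.trans (by decide)
      · exact h1.trans (by decide)
    exact orderOf_dvd_iff_pow_eq_one.mp hd
  let ψ : Two →* MulAut toM24.ker := MulAut.conjNormal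
  have hψ : ψ = 1 := by
    have hy : ψ (gP 2) = 1 := by
      have h3 : ψ (gP 2) ^ 3 = 1 := by
        rw [← map_pow]
        have h := gP_rel (u := [2, 2, 2]) (by decide +kernel)
        simp only [pval, one_mul] at h
        rw [pow_succ, pow_two, h, map_one]
      rw [pow_succ, haut, one_mul] at h3
      exact h3
    have hx : ψ (gP 1) = 1 := by
      have h23 := congrArg ψ gP_xy
      rw [map_pow, map_mul, map_one, hy, one_mul, show (23 : ℕ) = 2 * 11 + 1 from rfl, pow_succ,
        pow_mul, haut, one_pow, one_mul] at h23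
      exact h23
    refine PresentedGroup.ext fun i => ?_
    fin_cases i
    · exact hx
    · show ψ (gP 3) = 1
      have h := congrArg ψ gP_letters.l23
      rwa [map_mul, hy, one_mul, map_one] at h
  have hstem : IsStemExtension toM24 := by
    refine ⟨toM24_surjective, fun n hn => Subgroup.mem_center_iff.mpr fun g => ?_, fun n _ => ?_⟩
    · have h := congrArg (fun e : MulAut toM24.ker => ((e ⟨n, hn⟩ : toM24.ker) : Two))
        (DFunLike.congr_fun hψ g)
      simp only [MulAut.conjNormal_apply, ψ, MonoidHom.one_apply, MulAut.one_apply] at h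
      calc g * n = g * n * g⁻¹ * g := by group
        _ = n * g := by rw [h]
    · have h := DFunLike.congr_fun (two_perfect (Abelianization.of : Two →* _)) n
      rw [← Abelianization.ker_of, MonoidHom.mem_ker]
      exact h
  rw [← MonoidHom.ker_eq_bot_iff]
  exact CentralExt.ker_eq_bot_of_trivial Cfsg.Agent.SchurCert.m24_hasTrivialMultiplier hstem

/-! ### the image in `J4` -/

open Cfsg.Spor (J4)
open Cfsg.Spor.J4 (Gen)

noncomputable def gJ : ℕ → J4
  | 1 => PresentedGroup.of Gen.x
  | 2 => (PresentedGroup.of Gen.y)⁻¹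
  | 3 => PresentedGroup.of Gen.y
  | _ => 1

/-- The letter of a signed generator of `J4`, for the relators in x, y. -/
def codeXY : Gen × Bool → ℕ
  | (.x, _) => 1
  | (.y, true) => 3
  | (.y, false) => 2
  | (.t, _) => 0

theorem gJ_letters : Letters gJ := by
  have h2 : (PresentedGroup.of Gen.x : J4) ^ 2 = 1 :=
    PresentedGroup.one_of_mem (Or.inr (List.getElem_mem (n := 0) (l := Cfsg.Spor.J4.extra) (by decide)))
  have h3 : (PresentedGroup.of Gen.y : J4) ^ 3 = 1 :=
    PresentedGroup.one_of_mem (Or.inr (List.getElem_mem (n := 1) (l := Cfsg.Spor.J4.extra) (by decide)))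
  refine ⟨?_, inv_mul_cancel _, ?_⟩
  · rw [← pow_two]; exact h2
  · show _⁻¹ * _⁻¹ = _
    show (_ * _ : J4) = PresentedGroup.of Gen.y
    rw [← mul_inv_rev, inv_eq_iff_mul_eq_one, ← pow_two, ← pow_succ, h3]

theorem relWords_extra : ∀ u ∈ relWords, ∃ r ∈ Cfsg.Spor.J4.extra, (∀ z ∈ r.toWord, z.1 ≠ Gen.t) ∧
    (u = (r.toWord.map codeXY).reverse ∨ u = revInv (r.toWord.map codeXY).reverse) := by
  decide +kernel

theorem gJ_rel {u : List ℕ} (hu : u ∈ relWords) : pval gJ u = 1 := by
  obtain ⟨r, hr, ht, hu'⟩ := relWords_extra u hu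
  have h : pval gJ (r.toWord.map codeXY).reverse = 1 := by
    have h1 : FreeGroup.lift (PresentedGroup.of (rels := Cfsg.Spor.coxRelators Cfsg.Spor.J4.edges ∪
        {r | r ∈ Cfsg.Spor.J4.extra})) r = 1 := by
      have e : FreeGroup.lift (PresentedGroup.of (rels := Cfsg.Spor.coxRelators Cfsg.Spor.J4.edges ∪
          {r | r ∈ Cfsg.Spor.J4.extra})) = PresentedGroup.mk _ := by
        ext a; simp [PresentedGroup.of]
      rw [e]
      exact PresentedGroup.one_of_mem (Or.inr hr)
    rw [← FreeGroup.mk_toWord (x := r), FreeGroup.lift_mk] at h1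
    rw [pval_eq_prod, List.reverse_reverse, List.map_map]
    refine Eq.trans ?_ h1
    refine congrArg List.prod (List.map_congr_left fun z hz => ?_)
    have := ht z hz
    rcases z with ⟨_ | _ | _, _ | _⟩
    · exact eq_inv_of_mul_eq_one_left gJ_letters.sq
    · rfl
    · rfl
    · rfl
    · exact absurd rfl this
    · exact absurd rfl this
  rcases hu' with rfl | rfl
  · exact h
  · rw [revInv_spec gJ_letters _ ?_, h, inv_one]
    intro l hl
    obtain ⟨z, hz, rfl⟩ := List.mem_map.mp (List.mem_reverse.mp hl)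
    have := ht z hz
    rcases z with ⟨_ | _ | _, _ | _⟩
    all_goals first
      | exact absurd rfl this
      | simp [codeXY]

noncomputable def genJ : Fin 2 → J4 := ![PresentedGroup.of Gen.x, PresentedGroup.of Gen.y]

noncomputable def toJ4 : Two →* J4 :=
  PresentedGroup.toGroup (f := genJ) (rels := relsTwo) (by
    rintro _ ⟨u, hu, rfl⟩
    have e : (fun l => FreeGroup.lift genJ (gF l)) = gJ := by
      funext l
      match l with
      | 0 => simp [gF, gJ]
      | 1 => simp [gF, gJ, genJ]
      | 2 => simp [gF, gJ, genJ]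
      | 3 => simp [gF, gJ, genJ]
      | n + 4 => simp [gF, gJ]
    rw [map_pval, e]
    exact gJ_rel hu)

theorem toJ4_range : toJ4.range =
    (Subgroup.closure ({Cfsg.Spor.J4.x, Cfsg.Spor.J4.y} : Set (FreeGroup Gen))).map
      (PresentedGroup.mk (Cfsg.Spor.coxRelators Cfsg.Spor.J4.edges ∪ {r | r ∈ Cfsg.Spor.J4.extra})) := by
  rw [MonoidHom.map_closure, MonoidHom.range_eq_map, ← PresentedGroup.closure_range_of relsTwo,
    MonoidHom.map_closure, Set.image_pair]
  congr 1
  ext z
  constructor
  · rintro ⟨_, ⟨i, rfl⟩, rfl⟩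
    fin_cases i
    · exact Or.inl (PresentedGroup.toGroup.of _)
    · exact Or.inr (PresentedGroup.toGroup.of _)
  · rintro (rfl | rfl)
    · exact ⟨_, ⟨0, rfl⟩, PresentedGroup.toGroup.of _⟩
    · exact ⟨_, ⟨1, rfl⟩, PresentedGroup.toGroup.of _⟩

theorem toJ4_injective : Function.Injective toJ4 := by
  let e := MulEquiv.ofBijective toM24 ⟨toM24_injective, toM24_surjective⟩
  haveI : IsSimpleGroup Cfsg.M24 := Cfsg.Agent.Golay.isSimpleGroup_M24
  haveI : Nontrivial Two := e.toEquiv.nontrivial
  haveI : IsSimpleGroup Two := IsSimpleGroup.isSimpleGroup_of_surjective e.symm.toMonoidHom e.symm.surjective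
  rw [← MonoidHom.ker_eq_bot_iff]
  refine (Subgroup.Normal.eq_bot_or_eq_top inferInstance).resolve_right fun h => ?_
  have h1 : toJ4 (PresentedGroup.of (0 : Fin 2)) = 1 := MonoidHom.mem_ker.mp (h ▸ Subgroup.mem_top _)
  rw [toJ4, PresentedGroup.toGroup.of] at h1
  exact gen_x_ne_one h1

theorem main : Nonempty ((Subgroup.closure ({Cfsg.Spor.J4.x, Cfsg.Spor.J4.y} : Set (FreeGroup Gen))).map
    (PresentedGroup.mk (Cfsg.Spor.coxRelators Cfsg.Spor.J4.edges ∪ {r | r ∈ Cfsg.Spor.J4.extra})) ≃*
    Cfsg.M24) :=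
  ⟨(MulEquiv.subgroupCongr toJ4_range.symm).trans
    ((MonoidHom.ofInjective toJ4_injective).symm.trans
      (MulEquiv.ofBijective toM24 ⟨toM24_injective, toM24_surjective⟩))⟩

end Cfsg.Agent.JFourM24
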