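import Cfsg.Agent.JFourM24.Derive
import Cfsg.Agent.JFourM24.StepA
import Cfsg.Agent.JFourM24.StepB
import Cfsg.Agent.JFourM24.StepC
import Cfsg.Agent.JFourM24.StepD

/-! A group with two generators that satisfy the seven relators has order at most three times `|M24|`. -/

set_option autoImplicit false
set_option maxRecDepth 100000

namespace Cfsg.Agent.JFourM24

open Cfsg.Agent.CosetCert Cfsg.Agent.CosetEnum

theorem inv_words : ∀ l < emb.length,
    derivedOK relWords (emb.getD l [] ++ emb.getD (stepB.invl.getD l 0) []) (relWords.length, false, []) = true := by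
  decide +kernel

theorem stab_checked : ∀ i < stabWords.length,
    derivedOK relWords ((stabWords.getD i []).flatMap fun l => emb.getD l []) (stabCerts.getD i (0, false, [])) = true := by
  decide +kernel

theorem pval_mem_closure {G : Type*} [Group G] (g : ℕ → G) (L : List ℕ) :
    ∀ u : List ℕ, (∀ l ∈ u, l ∈ L) → pval g u ∈ Subgroup.closure (g '' {l | l ∈ L}) := by
  intro u
  induction u with
  | nil => intro _; exact Subgroup.one_mem _
  | cons l ls ih =>
    intro h
    exact Subgroup.mul_mem _ (ih fun m hm => h m (List.mem_cons_of_mem _ hm))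
      (Subgroup.subset_closure ⟨l, h l List.mem_cons_self, rfl⟩)

theorem card_le {G : Type*} [Group G] {g : ℕ → G} (h0 : g 0 = 1) (hd : ∀ l, 4 ≤ l → g l = 1)
    (h : Letters g) (hrel : ∀ u ∈ relWords, pval g u = 1) :
    Finite (Subgroup.closure (g '' {l | l ∈ [1, 2, 3]})) ∧
      Nat.card (Subgroup.closure (g '' {l | l ∈ [1, 2, 3]})) ≤ 734469120 := by
  set g2 := subst g emb with hg2
  have g20 : g2 0 = 1 := rfl
  have hinv2 : ∀ l, g2 (stepB.invl.getD l 0) = (g2 l)⁻¹ :=
    subst_inv g emb stepB.invl rfl rfl fun l hl => derived_spec h hrel (inv_words l hl)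
  have hinvA : ∀ l, g (stepA.inv l) = (g l)⁻¹ := by
    intro l
    rcases Nat.lt_or_ge l 4 with hl | hl
    · interval_cases l
      · show g 0 = (g 0)⁻¹
        rw [h0, inv_one]
      · exact eq_inv_of_mul_eq_one_left h.sq
      · exact eq_inv_of_mul_eq_one_left h.l32
      · exact eq_inv_of_mul_eq_one_left h.l23
    · have e : stepA.inv l = 0 := List.getD_eq_default _ _ (by simpa [stepA] using hl)
      rw [e, h0, hd l hl, inv_one]
  have hstab : ∀ u ∈ stabWords, pval g2 u = 1 := by
    intro u hu
    obtain ⟨i, hi, rfl⟩ := List.getElem_of_mem hu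
    rw [hg2, pval_subst, ← List.getD_eq_getElem stabWords [] hi]
    exact derived_spec h hrel (stab_checked i hi)
  have hA : ∀ u ∈ stepA.words, pval g u = 1 := by
    intro u hu
    rcases (by decide +kernel : ∀ u ∈ stepA.words, u ∈ relWords ∨ u = [2, 3]) u hu with h1 | rfl
    · exact hrel u h1
    · simp [pval, h.l32]
  -- the cyclic bottom
  have h5 : g2 5 ^ 3 = 1 := by
    have := hstab [5, 5, 5] (by decide +kernel)
    simpa [pval, pow_succ] using this
  have hord : IsOfFinOrder (g2 5) := isOfFinOrder_iff_pow_eq_one.2 ⟨3, by norm_num, h5⟩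
  haveI : Finite (Subgroup.zpowers (g2 5)) := hord.finite_zpowers.to_subtype
  have hD := BoundData.card_closure_le stepD_valid g2 g20 hinv2
    (fun u hu => hstab u ((by decide +kernel : ∀ u ∈ stepD.words, u ∈ stabWords) u hu))
    (Subgroup.zpowers (g2 5)) (fun u hu => by
      have e : u = [5] := (by decide +kernel : ∀ u ∈ stepD.subs, u = [5]) u hu
      subst e
      simp [pval]) 3 (by rw [Nat.card_zpowers]; exact orderOf_le_of_pow_eq_one (by norm_num) h5)
  haveI := hD.1
  have hC := BoundData.card_closure_le stepC_valid g2 g20 hinv2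
    (fun u hu => hstab u ((by decide +kernel : ∀ u ∈ stepC.words, u ∈ stabWords) u hu))
    (Subgroup.closure (g2 '' {l | l ∈ stepD.letters}))
    (fun u hu => pval_mem_closure g2 _ u
      ((by decide +kernel : ∀ u ∈ stepC.subs, ∀ l ∈ u, l ∈ stepD.letters) u hu)) _ hD.2
  haveI := hC.1
  have hB := BoundData.card_closure_le stepB_valid g2 g20 hinv2
    (fun u hu => hstab u ((by decide +kernel : ∀ u ∈ stepB.words, u ∈ stabWords) u hu))
    (Subgroup.closure (g2 '' {l | l ∈ stepC.letters}))
    (fun u hu => pval_mem_closure g2 _ u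
      ((by decide +kernel : ∀ u ∈ stepB.subs, ∀ l ∈ u, l ∈ stepC.letters) u hu)) _ hC.2
  haveI := hB.1
  have hA' := BoundData.card_closure_le stepA_valid g h0 hinvA hA
    (Subgroup.closure (g2 '' {l | l ∈ stepB.letters}))
    (fun u hu => by
      obtain ⟨l, hl, rfl⟩ := (by decide +kernel :
        ∀ u ∈ stepA.subs, ∃ l ∈ stepB.letters, u = emb.getD l []) u hu
      exact Subgroup.subset_closure ⟨l, hl, rfl⟩) _ hB.2
  exact ⟨hA'.1, hA'.2.trans (by decide +kernel)⟩

end Cfsg.Agent.JFourM24
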